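import Cfsg.Agent.H120.RC.Sob
import Cfsg.Agent.H820.SL32
import Cfsg.Agent.Involutions.IndexFive

/-!
# S4191, X7: seven times the order of a solvable linear group in characteristic two (helper261)

`G` solvable, faithful on an elementary abelian 2-group `X`, no nontrivial normal 2-subgroup: `7 |G| ≤ |X|³` unless
the order of `G` has only the prime divisors 2 and 3.
-/

set_option autoImplicit false

namespace Cfsg.Agent.H261.RC

open Matrix Cfsg.Agent.H120.RC

universe u w

/-- `GL(3, 2)` -/
local notation "S3" => Matrix.SpecialLinearGroup (Fin 3) (ZMod 2)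

theorem seven_mul_card_le (K : Subgroup S3) (hK : Group.IsSolvable K) : 7 * Nat.card K ≤ 168 := by
  have hs : IsSimpleGroup S3 := Cfsg.Agent.H820.SL32.isSimple
  have hf : Finite S3 := Cfsg.Agent.H820.SL32.finite
  have hc : Nat.card S3 = 168 := Cfsg.Agent.H820.SL32.card
  have hK1 : K ≠ ⊤ := by
    rintro rfl
    have h1 : Group.IsSolvable S3 := Group.isSolvable_of_surjective (f := (⊤ : Subgroup S3).subtype)
      (fun x => ⟨⟨x, trivial⟩, rfl⟩)
    obtain ⟨a, b, hab⟩ := Cfsg.Agent.H820.SL32.noncomm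
    exact hab (IsSimpleGroup.comm_iff_isSolvable.2 h1 a b)
  have h2 := Cfsg.Agent.Involutions.IndexFive.card_dvd_factorial_index K hK1
  have h3 := K.index_mul_card
  rw [hc] at h2 h3
  have h7 : 7 ≤ K.index := by
    by_contra hcon
    push Not at hcon
    interval_cases K.index <;> revert h2 <;> decide
  rw [← h3]
  exact Nat.mul_le_mul_right _ h7

section

variable {A : Type w} {X : Type u} [Group A] [AddCommGroup X] [DistribMulAction A X] [Module (ZMod 2) X]

theorem smul_zmod (a : A) (c : ZMod 2) (x : X) : a • (c • x) = c • (a • x) := by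
  have key : ∀ c : ZMod 2, c = 0 ∨ c = 1 := by decide
  rcases key c with rfl | rfl
  · rw [zero_smul, zero_smul, smul_zero]
  · rw [one_smul, one_smul]

/-- the action of `A × GL(3, 2)` on the triples -/
@[reducible] def act : MulAction (A × S3) (Fin 3 → X) where
  smul p t := fun j => ∑ i, (p.2 : Matrix (Fin 3) (Fin 3) (ZMod 2)) j i • (p.1 • t i)
  one_smul t := by
    funext j
    show ∑ i, ((1 : S3) : Matrix (Fin 3) (Fin 3) (ZMod 2)) j i • ((1 : A) • t i) = t j
    rw [Matrix.SpecialLinearGroup.coe_one]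
    simp only [one_smul, Matrix.one_apply, ite_smul, zero_smul, Finset.sum_ite_eq, Finset.mem_univ, if_true]
  mul_smul p q t := by
    funext j
    show ∑ i, ((p.2 * q.2 : S3) : Matrix (Fin 3) (Fin 3) (ZMod 2)) j i • ((p.1 * q.1) • t i) =
      ∑ k, (p.2 : Matrix (Fin 3) (Fin 3) (ZMod 2)) j k • (p.1 •
        ∑ i, (q.2 : Matrix (Fin 3) (Fin 3) (ZMod 2)) k i • (q.1 • t i))
    rw [Matrix.SpecialLinearGroup.coe_mul]
    simp only [Finset.smul_sum, smul_zmod, Matrix.mul_apply, Finset.sum_smul, mul_smul]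
    rw [Finset.sum_comm]

/-- three independent vectors with trivial stabilizer -/
theorem seven_of_indep [Finite A] [Finite X] (hA : Group.IsSolvable A) (t : Fin 3 → X)
    (ht : LinearIndependent (ZMod 2) t) (hb : ∀ a : A, (∀ i, a • t i = t i) → a = 1) :
    7 * Nat.card A ≤ Nat.card X ^ 3 := by
  let _ : MulAction (A × S3) (Fin 3 → X) := act
  have hf : Finite S3 := Cfsg.Agent.H820.SL32.finite
  have hc : Nat.card S3 = 168 := Cfsg.Agent.H820.SL32.card
  have hsm : ∀ (p : A × S3) (s : Fin 3 → X) (j : Fin 3),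
      (p • s) j = ∑ i, (p.2 : Matrix (Fin 3) (Fin 3) (ZMod 2)) j i • (p.1 • s i) := fun _ _ _ => rfl
  set K := MulAction.stabilizer (A × S3) t with hK
  -- the projection to `A` is injective
  have h1 : Function.Injective ((MonoidHom.fst A S3).comp K.subtype) := by
    rw [injective_iff_map_eq_one]
    rintro ⟨⟨a, M⟩, hM⟩ h
    have ha : a = 1 := h
    subst ha
    rw [hK, MulAction.mem_stabilizer_iff] at hM
    have h2 : M = 1 := by
      apply Subtype.ext
      ext j k
      have h3 := congrFun hM j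
      rw [hsm] at h3
      simp only [one_smul] at h3
      have h4 : ∑ i, ((M : Matrix (Fin 3) (Fin 3) (ZMod 2)) j i - (1 : Matrix (Fin 3) (Fin 3) (ZMod 2)) j i) • t i = 0 := by
        simp only [sub_smul, Finset.sum_sub_distrib, h3, Matrix.one_apply, ite_smul, one_smul, zero_smul,
          Finset.sum_ite_eq, Finset.mem_univ, if_true, sub_self]
      have h5 := (Fintype.linearIndependent_iff.1 ht) _ h4 k
      exact sub_eq_zero.1 h5
    subst h2
    rfl
  have h2 : Function.Injective ((MonoidHom.snd A S3).comp K.subtype) := by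
    rw [injective_iff_map_eq_one]
    rintro ⟨⟨a, M⟩, hM⟩ h
    have ha : M = 1 := h
    subst ha
    rw [hK, MulAction.mem_stabilizer_iff] at hM
    have h2 : a = 1 := by
      apply hb
      intro j
      have h3 := congrFun hM j
      rw [hsm] at h3
      simpa only [Matrix.SpecialLinearGroup.coe_one, Matrix.one_apply, ite_smul, one_smul, zero_smul,
          Finset.sum_ite_eq, Finset.mem_univ, if_true] using h3
    subst h2
    rfl
  have hKs : Group.IsSolvable K := Group.isSolvable_of_isSolvable_injective h1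
  have h3 : 7 * Nat.card K ≤ 168 := by
    have h4 := seven_mul_card_le ((MonoidHom.snd A S3).comp K.subtype).range
      (Group.isSolvable_of_surjective (f := ((MonoidHom.snd A S3).comp K.subtype).rangeRestrict)
        (MonoidHom.rangeRestrict_surjective _))
    rwa [← Nat.card_congr (MonoidHom.ofInjective h2).toEquiv] at h4
  have h4 : Nat.card (MulAction.orbit (A × S3) t) * Nat.card K = Nat.card A * 168 := by
    rw [← hc, ← Nat.card_prod A, hK]
    have h5 : (MulAction.stabilizer (A × S3) t).index = Nat.card (MulAction.orbit (A × S3) t) := by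
      rw [MulAction.index_stabilizer, Nat.card_coe_set_eq]
    rw [← h5]
    exact Subgroup.index_mul_card _
  have h5 : Nat.card (MulAction.orbit (A × S3) t) ≤ Nat.card X ^ 3 := by
    have h6 := Nat.card_le_card_of_injective (Subtype.val : MulAction.orbit (A × S3) t → (Fin 3 → X))
      Subtype.val_injective
    rwa [Nat.card_fun, Nat.card_eq_fintype_card (α := Fin 3), Fintype.card_fin] at h6
  have h6 : 7 * Nat.card A * 168 ≤ Nat.card X ^ 3 * 168 := by
    calc 7 * Nat.card A * 168 = 7 * (Nat.card A * 168) := by ring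
      _ = Nat.card (MulAction.orbit (A × S3) t) * (7 * Nat.card K) := by rw [← h4]; ring
      _ ≤ Nat.card X ^ 3 * 168 := Nat.mul_le_mul h5 h3
  exact Nat.le_of_mul_le_mul_right h6 (by norm_num)

/-- an irreducible module of order at least seven -/
theorem seven_of_base [Finite A] [Finite X] (hA : Group.IsSolvable A) (t : Fin 3 → X)
    (hb : ∀ a : A, (∀ i, a • t i = t i) → a = 1) (h7 : 7 ≤ Nat.card X) :
    7 * Nat.card A ≤ Nat.card X ^ 3 := by
  by_cases ht : LinearIndependent (ZMod 2) t
  · exact seven_of_indep hA t ht hb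
  rw [Fintype.not_linearIndependent_iff] at ht
  obtain ⟨c, hc, i, hi⟩ := ht
  have hi1 : c i = 1 := by
    have key : ∀ c : ZMod 2, c ≠ 0 → c = 1 := by decide
    exact key _ hi
  have h1 : Nat.card A ≤ Nat.card X ^ 2 := by
    have hinj : Function.Injective (fun (a : A) (j : {j : Fin 3 // j ≠ i}) => a • t j) := by
      intro a b hab
      have h2 : b⁻¹ * a = 1 := by
        apply hb
        have h3 : ∀ j, j ≠ i → (b⁻¹ * a) • t j = t j := fun j hj => by
          have h4 := congrFun hab ⟨j, hj⟩
          simp only at h4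
          rw [mul_smul, h4, inv_smul_smul]
        intro j
        by_cases hj : j = i
        · subst hj
          have h4 : t j = - ∑ k ∈ Finset.univ.erase j, c k • t k := by
            have h5 := Finset.add_sum_erase Finset.univ (fun k => c k • t k) (Finset.mem_univ j)
            rw [hc] at h5
            simp only [hi1, one_smul] at h5
            exact eq_neg_of_add_eq_zero_left h5
          rw [h4, smul_neg, Finset.smul_sum]
          congr 1
          refine Finset.sum_congr rfl fun k hk => ?_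
          rw [smul_zmod, h3 k (Finset.ne_of_mem_erase hk)]
        · exact h3 j hj
      exact (inv_mul_eq_one.1 h2).symm
    have h2 := Nat.card_le_card_of_injective _ hinj
    rw [Nat.card_fun] at h2
    have h3 : Nat.card {j : Fin 3 // j ≠ i} = 2 := by
      rw [Nat.card_eq_fintype_card, Fintype.card_subtype_compl, Fintype.card_fin, Fintype.card_subtype_eq]
    rwa [h3] at h2
  calc 7 * Nat.card A ≤ Nat.card X * Nat.card X ^ 2 := Nat.mul_le_mul h7 h1
    _ = Nat.card X ^ 3 := by ring

end

section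

variable {G : Type w} [Group G] {X : Type u} [AddCommGroup X]

/-- an irreducible module -/
theorem irr7 [Finite G] [Finite X] (hG : Group.IsSolvable G) (h2 : ∀ x : X, 2 • x = 0) (φ : G →* AddMonoid.End X)
    (hirr : ∀ U : AddSubgroup X, (∀ g : G, ∀ x ∈ U, φ g x ∈ U) → U = ⊥ ∨ U = ⊤) :
    7 * φ.ker.index ≤ Nat.card X ^ 3 ∨ φ.ker.index ∣ 24 := by
  set ψ := φ.toHomUnits with hψ
  have hval : ∀ g : G, ((ψ g : (AddMonoid.End X)ˣ) : AddMonoid.End X) = φ g := fun g => rfl
  have hker : φ.ker = ψ.ker := by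
    ext g
    rw [MonoidHom.mem_ker, MonoidHom.mem_ker, ← Units.val_inj, hval, Units.val_one]
  rw [hker, Subgroup.index_ker]
  have hsm : ∀ (a : ψ.range) (x : X), a • x = ((a : (AddMonoid.End X)ˣ) : AddMonoid.End X) x := fun a x => rfl
  have hfin : Finite ψ.range := Set.finite_range ψ
  have hfs : FaithfulSMul ψ.range X := by
    refine ⟨fun {a b} h => ?_⟩
    apply Subtype.ext
    apply Units.ext
    exact AddMonoidHom.ext fun x => h x
  have hsol : Group.IsSolvable ψ.range := Group.isSolvable_of_surjective (f := ψ.rangeRestrict)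
    ψ.rangeRestrict_surjective
  obtain ⟨n, hn⟩ : ∃ n, Nat.card X = 2 ^ n := by
    have hf2 : Fact (Nat.Prime 2) := ⟨Nat.prime_two⟩
    have h3 : IsPGroup 2 (Multiplicative X) := by
      intro x
      refine ⟨1, ?_⟩
      rw [pow_one]
      exact h2 x.toAdd
    obtain ⟨n, hn⟩ := IsPGroup.iff_card.1 h3
    exact ⟨n, hn⟩
  by_cases hn3 : n < 3
  · right
    have h3 : Nat.card ψ.range ∣ (Nat.card X).factorial := by
      have h4 := Subgroup.card_dvd_of_injective (MulAction.toPermHom ψ.range X) (by
        intro a b hab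
        exact hfs.eq_of_smul_eq_smul fun x => by
          have h5 := congrArg (fun σ : Equiv.Perm X => σ x) hab
          exact h5)
      rwa [Nat.card_perm] at h4
    refine h3.trans ?_
    rw [hn]
    interval_cases n <;> decide
  · left
    obtain ⟨v₁, v₂, v₃, hv⟩ := Cfsg.Agent.H578.base3 (A := ψ.range) (V := X) hsol (by
      intro U hU
      rcases hirr U (fun g x hx => hU ⟨ψ g, g, rfl⟩ x hx) with rfl | rfl
      · exact ⟨⊤, fun _ _ _ => trivial, by simp, by simp⟩
      · exact ⟨⊥, fun a x hx => by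
          rw [AddSubgroup.mem_bot] at hx ⊢
          rw [hx, smul_zero], by simp, by simp⟩)
    let _ : Module (ZMod 2) X := AddCommGroup.zmodModule h2
    refine seven_of_base hsol ![v₁, v₂, v₃] (fun a ha => hv a (ha 0) (ha 1) (ha 2)) ?_
    rw [hn]
    calc 7 ≤ 2 ^ 3 := by norm_num
      _ ≤ 2 ^ n := Nat.pow_le_pow_right (by norm_num) (by omega)

/-- a normal subgroup of small index all of whose elements act as 2-elements -/
theorem claim7 (hG : Group.IsSolvable G) [Finite G] : ∀ (n : ℕ) (X : Type u) [AddCommGroup X] [Finite X]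
    (φ : G →* AddMonoid.End X), (∀ x : X, 2 • x = 0) → Nat.card X = n →
    ∃ N : Subgroup G, N.Normal ∧ N.index ≤ Nat.card X ^ 3 ∧
      (7 * N.index ≤ Nat.card X ^ 3 ∨ ∀ r : ℕ, r.Prime → r ∣ N.index → r ≤ 3) ∧
      ∀ g ∈ N, ∃ k : ℕ, ∀ x : X, φ (g ^ 2 ^ k) x = x := by
  intro n
  induction n using Nat.strong_induction_on with
  | _ n ih =>
    intro X _ _ φ hq hn
    by_cases hirr : ∀ U : AddSubgroup X, (∀ g : G, ∀ x ∈ U, φ g x ∈ U) → U = ⊥ ∨ U = ⊤
    · refine ⟨φ.ker, inferInstance, irr hG φ hirr, ?_, fun g hg => ⟨0, fun x => ?_⟩⟩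
      · refine (irr7 hG hq φ hirr).imp_right fun h r hr hrd => ?_
        have h3 : r ∣ 2 ^ 3 * 3 := hrd.trans h
        rcases (hr.dvd_mul.1 h3) with h4 | h4
        · exact (Nat.le_of_dvd (by norm_num) (hr.dvd_of_dvd_pow h4)).trans (by norm_num)
        · exact Nat.le_of_dvd (by norm_num) h4
      · rw [pow_zero, pow_one, MonoidHom.mem_ker.1 hg]
        rfl
    push Not at hirr
    obtain ⟨U, hU, hU0, hU1⟩ := hirr
    have hcard : Nat.card X = Nat.card (X ⧸ U) * Nat.card U := AddSubgroup.card_eq_card_quotient_mul_card_addSubgroup U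
    have h1 : 1 < Nat.card U := by
      rw [Finite.one_lt_card_iff_nontrivial]
      exact (AddSubgroup.nontrivial_iff_ne_bot U).2 hU0
    have h2 : 1 < Nat.card (X ⧸ U) := by
      have h3 : U.index ≠ 1 := fun h => hU1 (AddSubgroup.index_eq_one.1 h)
      have h4 : 0 < Nat.card (X ⧸ U) := Nat.card_pos
      have h5 : U.index = Nat.card (X ⧸ U) := rfl
      omega
    obtain ⟨N₁, hN₁, hi₁, hs₁, hk₁⟩ := ih (Nat.card U) (by rw [← hn, hcard]; nlinarith) U (resHom φ U hU)
      (fun x => Subtype.ext (hq x)) rfl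
    obtain ⟨N₂, hN₂, hi₂, hs₂, hk₂⟩ := ih (Nat.card (X ⧸ U)) (by rw [← hn, hcard]; nlinarith) (X ⧸ U)
      (quoHom φ U hU) (fun x => by
        obtain ⟨x, rfl⟩ := QuotientAddGroup.mk_surjective x
        have h := congrArg (fun y : X => (y : X ⧸ U)) (hq x)
        simpa using h) rfl
    refine ⟨N₁ ⊓ N₂, inferInstance, ?_, ?_, ?_⟩
    · refine Subgroup.index_inf_le.trans ?_
      rw [hcard, mul_pow, mul_comm (Nat.card (X ⧸ U) ^ 3)]
      exact Nat.mul_le_mul hi₁ hi₂
    · have hle : (N₁ ⊓ N₂).index ≤ N₁.index * N₂.index := Subgroup.index_inf_le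
      rcases hs₁ with hs₁ | hs₁
      · left
        calc 7 * (N₁ ⊓ N₂).index ≤ 7 * (N₁.index * N₂.index) := Nat.mul_le_mul_left 7 hle
          _ = (7 * N₁.index) * N₂.index := by ring
          _ ≤ Nat.card U ^ 3 * Nat.card (X ⧸ U) ^ 3 := Nat.mul_le_mul hs₁ hi₂
          _ = Nat.card X ^ 3 := by rw [hcard]; ring
      rcases hs₂ with hs₂ | hs₂
      · left
        calc 7 * (N₁ ⊓ N₂).index ≤ 7 * (N₁.index * N₂.index) := Nat.mul_le_mul_left 7 hle
          _ = N₁.index * (7 * N₂.index) := by ring
          _ ≤ Nat.card U ^ 3 * Nat.card (X ⧸ U) ^ 3 := Nat.mul_le_mul hi₁ hs₂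
          _ = Nat.card X ^ 3 := by rw [hcard]; ring
      · right
        intro r hr hrd
        have h3 : (N₁ ⊓ N₂).index ∣ N₁.index * N₂.index := by
          rw [← Subgroup.relIndex_mul_index (inf_le_right : N₁ ⊓ N₂ ≤ N₂), Subgroup.inf_relIndex_right]
          exact Nat.mul_dvd_mul_right (Subgroup.relIndex_dvd_index_of_normal N₁ N₂) _
        rcases hr.dvd_mul.1 (hrd.trans h3) with h4 | h4
        · exact hs₁ r hr h4
        · exact hs₂ r hr h4
    · intro g hg
      obtain ⟨k₁, h₁⟩ := hk₁ g hg.1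
      obtain ⟨k₂, h₂⟩ := hk₂ g hg.2
      have hpow : ∀ (Y : Type u) [AddCommGroup Y] (ψ : G →* AddMonoid.End Y) (a : G), (∀ y : Y, ψ a y = y) →
          ∀ (j : ℕ) (y : Y), ψ (a ^ j) y = y := by
        intro Y _ ψ a ha j
        induction j with
        | zero => intro y; rw [pow_zero, map_one]; rfl
        | succ j ih =>
          intro y
          rw [pow_succ, map_mul]
          show ψ (a ^ j) (ψ a y) = y
          rw [ha, ih]
      set h := g ^ 2 ^ (k₁ + k₂) with hh
      have e₁ : ∀ x : U, φ h (x : X) = x := by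
        intro x
        have h3 := hpow U (resHom φ U hU) _ h₁ (2 ^ k₂) x
        rw [← pow_mul, ← pow_add] at h3
        exact congrArg Subtype.val h3
      have e₂ : ∀ x : X, φ h x - x ∈ U := by
        intro x
        have h3 := hpow (X ⧸ U) (quoHom φ U hU) _ h₂ (2 ^ k₁) (x : X ⧸ U)
        rw [← pow_mul, ← pow_add, add_comm k₂, quoHom_apply] at h3
        have h4 := QuotientAddGroup.eq.1 h3.symm
        rwa [neg_add_eq_sub] at h4
      refine ⟨k₁ + k₂ + 1, fun x => ?_⟩
      have e₃ : ∀ j : ℕ, φ (h ^ j) x = x + j • (φ h x - x) := by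
        intro j
        induction j with
        | zero => rw [pow_zero, map_one, zero_smul, add_zero]; rfl
        | succ j ih =>
          rw [pow_succ', map_mul]
          show φ h (φ (h ^ j) x) = _
          rw [ih, map_add, map_nsmul, e₁ ⟨_, e₂ x⟩, succ_nsmul]
          abel
      rw [pow_succ, pow_mul, ← hh, e₃, hq, add_zero]

end

/-- a solvable group of matrices without normal 2-subgroups in characteristic two: `7 |G| ≤ |X|³` unless `|G|` has
only the prime divisors 2 and 3 -/
theorem seven_or {G X : Type u} [Group G] [Finite G] [Group.IsSolvable G] [AddCommGroup X] [Finite X]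
    [DistribMulAction G X] (h2 : ∀ x : X, 2 • x = 0) (hf : ∀ g : G, (∀ x : X, g • x = x) → g = 1)
    (hO : ∀ N : Subgroup G, N.Normal → IsPGroup 2 N → N = ⊥) :
    7 * Nat.card G ≤ Nat.card X ^ 3 ∨ ∀ r : ℕ, r.Prime → r ∣ Nat.card G → r ≤ 3 := by
  obtain ⟨N, hN, _, hi, hk⟩ := claim7 (G := G) inferInstance (Nat.card X) X
    ((DistribMulAction.toAddMonoidEnd G X)) h2 rfl
  have hNp : IsPGroup 2 N := by
    intro g
    obtain ⟨k, hk⟩ := hk g g.2
    refine ⟨k, Subtype.ext ?_⟩
    exact hf _ hk
  have hN1 := hO N hN hNp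
  rw [hN1, Subgroup.index_bot] at hi
  exact hi

/-- **X7** -/
theorem seven_mul_le {G X : Type u} [Group G] [Finite G] [Group.IsSolvable G] [AddCommGroup X] [Finite X]
    [DistribMulAction G X] (h2 : ∀ x : X, 2 • x = 0) (hf : ∀ g : G, (∀ x : X, g • x = x) → g = 1)
    (hO : ∀ N : Subgroup G, N.Normal → IsPGroup 2 N → N = ⊥) (h5 : 5 ∣ Nat.card G) :
    7 * Nat.card G ≤ Nat.card X ^ 3 := by
  rcases seven_or h2 hf hO with h | h
  · exact h
  · exact absurd (h 5 (by norm_num) h5) (by norm_num)

end Cfsg.Agent.H261.RC
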